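import Cfsg.Agent.H365.ExcSeven
import Cfsg.Agent.H364.PSUFour

/-!
# A finite group with the order and the element orders of `E₇(q)` is `E₇(q)`
-/

set_option autoImplicit false

namespace Cfsg.Agent.H365.ExcRun

open Subgroup Cfsg Cfsg.Agent.OrdDiv Cfsg.Lie
open Cfsg.Agent.H902 Cfsg.Agent.H902.Art Cfsg.Agent.H364 Cfsg.Agent.H364.ArithU Cfsg.Agent.H364.Slack

universe u v

theorem e7_real (F : Type) [Field F] [Fintype F] {p f : ℕ} (hp : p.Prime) (hf : 1 ≤ f) (hF : Fintype.card F = p ^ f) :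
    Art.Real .E7 p f (Nat.card ↥(chevE7.group F)) := by
  refine ⟨hp, hf, trivial, ?_⟩
  have h := table.{0}.e7 F _ hF
  change Nat.gcd 2 (p ^ f - 1) * _ = (p ^ f) ^ 63 * (((p ^ f) ^ 2 - 1) * ((p ^ f) ^ 6 - 1) * ((p ^ f) ^ 8 - 1) *
    ((p ^ f) ^ 10 - 1) * ((p ^ f) ^ 12 - 1) * ((p ^ f) ^ 14 - 1) * ((p ^ f) ^ 18 - 1))
  rw [h]
  ring

theorem card_le {p f M : ℕ} (hY : Art.Real .E7 p f M) : M ≤ p ^ (f * 133) := by
  have h1 := hY.M_le
  have h2 : Art.num .E7 (p ^ f) ≤ (p ^ f) ^ 70 := by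
    change ((p ^ f) ^ 2 - 1) * ((p ^ f) ^ 6 - 1) * ((p ^ f) ^ 8 - 1) *
      ((p ^ f) ^ 10 - 1) * ((p ^ f) ^ 12 - 1) * ((p ^ f) ^ 14 - 1) * ((p ^ f) ^ 18 - 1) ≤ _
    calc _ ≤ (p ^ f) ^ 2 * (p ^ f) ^ 6 * (p ^ f) ^ 8 * (p ^ f) ^ 10 * (p ^ f) ^ 12 * (p ^ f) ^ 14 * (p ^ f) ^ 18 := by
          gcongr <;> exact Nat.sub_le _ _
      _ = _ := by ring
  calc M ≤ (p ^ f) ^ 63 * Art.num .E7 (p ^ f) := h1
    _ ≤ (p ^ f) ^ 63 * (p ^ f) ^ 70 := Nat.mul_le_mul_left _ h2
    _ = _ := by rw [← pow_add, ← pow_mul]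

theorem clog_le {p : ℕ} (hp : p.Prime) : Nat.clog p 133 ≤ 8 := by
  apply Nat.clog_le_of_le_pow
  calc 133 ≤ 2 ^ 8 := by norm_num
    _ ≤ p ^ 8 := Nat.pow_le_pow_left hp.two_le 8

/-- the simple factor with all the data -/
theorem core {G : Type u} [Group G] [Finite G] {F : Type v} [Field F] [Fintype F] {p f : ℕ} (hp : p.Prime)
    (hf : 1 ≤ f) (hF : Fintype.card F = p ^ f) (hY : Art.Real .E7 p f (Nat.card G))
    (hspec : ∀ x : G, ∃ y : ↥(chevE7.group F), orderOf y = orderOf x) :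
    ∃ (K : Subgroup G) (_ : K.Normal) (H : Subgroup (G ⧸ K)), Nat.card H = Nat.card G ∧ OrdDiv.Real (.e7 (p ^ f)) H := by
  have hpF : Fact p.Prime := ⟨hp⟩
  have hchar : CharP F p := OutLie.charP_of_card hp (f := f) (by omega) hF
  have hFn : Nat.card F = p ^ f := by rw [Nat.card_eq_fintype_card, hF]
  have hpd : p ∣ Nat.card F := by rw [hFn]; exact dvd_pow_self p (by omega)
  have hod : ∀ {t n : ℕ}, orderOf (p : ZMod t) = f * n → H378.ExcAdj.od (Nat.card F) t = n := by
    intro t n h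
    show orderOf ((Nat.card F : ℕ) : ZMod t) = n
    rw [hFn, Near.order_pow hf, h, Nat.gcd_mul_right_left, Nat.mul_div_cancel_left _ (by omega)]
  obtain ⟨r, hr, hrp, hro⟩ := exists_ppd hp (n := f * 18) (by omega) (fun h => by omega)
  obtain ⟨s, hs, hsp, hso⟩ := exists_ppd hp (n := f * 14) (by omega) (fun h => by omega)
  have hEr : NoEdge G r p := fun x hx => by
    obtain ⟨y, hy⟩ := hspec x
    exact ExcSeven.noEdge_E7 hp hpd hr (hod hro) (by tauto) y (hy.trans hx)
  have hEs : NoEdge G s p := fun x hx => by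
    obtain ⟨y, hy⟩ := hspec x
    exact ExcSeven.noEdge_E7 hp hpd hs (hod hso) (by tauto) y (hy.trans hx)
  have hrG : r ∣ Nat.card G := hY.dvd_of_order_DM hr hro (by show 3 ≤ f * 18; omega)
  have hsG : s ∣ Nat.card G := hY.dvd_of_order_BM hs (by decide) hso (by show 3 ≤ f * 14; omega)
  have hN : (Nat.card G).factorization p = f * 63 := fac_self hY
  have hlcm : (Nat.card G).factorization p < Nat.lcm (f * 18) (f * 14) := by
    rw [hN, Nat.lcm_mul_left, show Nat.lcm 18 14 = 126 by decide]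
    omega
  have he8 := clog_le hp
  set e := Nat.clog p 133 with he
  have hexp : ∀ x : G, ∀ j, orderOf x = p ^ j → j ≤ e := by
    intro x j hx
    obtain ⟨y, hy⟩ := hspec x
    exact ExcSeven.exp_E7 (hy.trans hx)
  have heN : e + 1 < (Nat.card G).factorization p := by omega
  have hor : ∀ {t n m : ℕ}, orderOf (p : ZMod t) = n → t ∣ p ^ m - 1 → n ∣ m := by
    intro t n m h h2
    rwa [← h, ← Cfsg.Agent.Lib.Zsigmondy.dvd_pow_sub_one_iff hp.one_le]
  obtain ⟨K, hKn, hpK, hrK, hsK, H, hHn, hHs, hHna, hHG, hout, hEr', hEs', hrs, hi1, hi2, har, hbs, hfr, hfs⟩ :=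
    reduce hp hr hs hrp.symm hsp.symm hrG hsG hEr hEs (fun n h => hor hro h) (fun n h => hor hso h) hlcm hexp heN
  refine ⟨K, hKn, H, ?_⟩
  have hK0 : Nat.card K ≠ 0 := Nat.card_pos.ne'
  have hH0 : Nat.card H ≠ 0 := Nat.card_pos.ne'
  have hI0 : H.index ≠ 0 := Subgroup.index_ne_zero_of_finite
  set δ := H.index.factorization p with hδdef
  have hδ : (Nat.card H).factorization p + δ = (Nat.card G).factorization p := by
    rw [← hHG, Nat.factorization_mul hK0 (Nat.mul_ne_zero hI0 hH0), Finsupp.add_apply,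
      Nat.factorization_eq_zero_of_not_dvd hpK, Nat.factorization_mul hI0 hH0, Finsupp.add_apply, hδdef]
    omega
  have hpI : p ^ δ ∣ H.index := Nat.ordProj_dvd _ _
  have hHd : Nat.card H ∣ Nat.card G := by rw [← hHG]; exact (Dvd.intro_left _ rfl).trans (Dvd.intro_left _ rfl)
  have hknown := Cfsg.Agent.S0000.result (G := H)
  have hlie : IsLieTypeChar p H := by
    rcases known_slack table hknown hHna hp with h | h
    · exact h
    exfalso
    have h1 : H365.PPart.pt p (Nat.card H) = p ^ ((Nat.card G).factorization p - δ) := by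
      rw [H365.PPart.pt]; congr 1; omega
    rw [h1] at h
    have h2 : Nat.card H * p ^ δ ≤ p ^ (f * 133) := by
      have h3 : Nat.card H * p ^ δ ≤ Nat.card G := by
        calc Nat.card H * p ^ δ ≤ Nat.card H * H.index :=
              Nat.mul_le_mul_left _ (Nat.le_of_dvd (Nat.pos_of_ne_zero hI0) hpI)
          _ = H.index * Nat.card H := mul_comm _ _
          _ ≤ Nat.card K * (H.index * Nat.card H) := Nat.le_mul_of_pos_left _ (Nat.pos_of_ne_zero hK0)
          _ = Nat.card G := hHG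
      exact h3.trans (card_le hY)
    have h3 := PSUFour.not_slack hp.two_le h h2
    have h4 : cc p ≤ 12 := by unfold cc; split_ifs <;> norm_num
    omega
  obtain ⟨g, X, f', hg, hreal, hX⟩ := LieNam.lie_nam table hp hlie
  obtain ⟨c, hc1, hc2, hc3⟩ := OutLie.card_out hHna hg hreal hX
  have hI : OutDat X p f' H.index := ⟨c, by rw [← hc1]; exact hout, hc2, hc3⟩
  have hcop : Nat.Coprime (p ^ δ) (dd X (p ^ f')) :=
    Nat.Coprime.pow_left δ ((Nat.Prime.coprime_iff_not_dvd hp).2 hX.not_dvd_dd)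
  have hpc : p ^ δ ∣ c * f' := hpI.trans (by rw [← hc1]; exact hout)
  have h24 : p ^ δ ∣ 24 * f' := by
    have h1 : p ^ δ ∣ dd X (p ^ f') * (24 * f') := by
      refine hpc.trans ?_
      rw [show dd X (p ^ f') * (24 * f') = (24 * dd X (p ^ f')) * f' by ring]
      exact Nat.mul_dvd_mul_right hc2 f'
    exact hcop.dvd_of_dvd_mul_left h1
  have h6 : p = 2 → 2 ^ δ ∣ 6 * f' := by
    intro h2
    have h1 : p ^ δ ∣ dd X (p ^ f') * (6 * f') := by
      refine hpc.trans ?_
      rw [show dd X (p ^ f') * (6 * f') = (6 * dd X (p ^ f')) * f' by ring]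
      exact Nat.mul_dvd_mul_right (hc3 h2) f'
    have h3 := hcop.dvd_of_dvd_mul_left h1
    rwa [h2] at h3
  have hfX : (Nat.card H).factorization p = f' * NN X := fac_self hX
  have hδ' : δ = f * NN .E7 - f' * NN X := by
    show δ = f * 63 - f' * NN X
    omega
  have hrH : r ∣ Nat.card H := by
    by_contra hcon
    obtain ⟨k, hk⟩ := har hcon
    rw [hk] at hδ
    rw [hN] at hδ
    have h1 : f * (18 * k) + δ = f * 63 := by rw [← hδ]; ring
    have hk3 : 18 * k ≤ 63 := by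
      by_contra h
      have : f * 63 < f * (18 * k) := Nat.mul_lt_mul_of_pos_left (by omega) (by omega)
      omega
    have h2 : f * (63 - 18 * k) = δ := by
      rw [Nat.mul_sub]; omega
    have h3 : f * 9 ≤ δ := by rw [← h2]; exact Nat.mul_le_mul_left _ (by omega)
    have hf1 : f = 1 := by omega
    subst hf1
    have hδ9 : δ = 9 := by omega
    have h4 := hI.pow hX hpI (by omega)
    have h5 := le_DM hX hY hHd (by show 6 ≤ 1 * 18; norm_num)
    have h6 : 2 ≤ DM X := (DM_ge hX).1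
    have h7 : f' * 2 ≤ f' * DM X := Nat.mul_le_mul_left _ h6
    have h8 : (1 : ℕ) * DM .E7 = 18 := rfl
    omega
  have hnear := Near.near_out hX hY hHd hr hro (by show 3 ≤ f * 18; omega) hrH (by rw [← hδ']; exact h24)
    (by rw [← hδ']; exact h6)
  have hXY : X = .E7 ∧ f' = f := by
    rcases hnear with h | h
    · exact h
    · exfalso
      unfold Near.Exc at h
      simp at h
  obtain ⟨rfl, rfl⟩ := hXY
  refine ⟨?_, ?_⟩
  · have h1 := hX.eq
    rw [← hY.eq] at h1
    exact Nat.eq_of_mul_eq_mul_left (Nat.pos_of_ne_zero hY.dd_ne) h1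
  · cases hg
    exact hreal

/-- **`E₇(q)` is characterised by its order and its element orders.** -/
theorem recog_E7 {G : Type u} [Group G] [Finite G] {F : Type} [Field F] [Fintype F]
    (hspec : ∀ x : G, ∃ y : ↥(chevE7.group F), orderOf y = orderOf x)
    (hcard : Nat.card G = Nat.card ↥(chevE7.group F)) : Nonempty (G ≃* ↥(chevE7.group F)) := by
  obtain ⟨p, f, hp, hf, hF⟩ := Names.exists_pp F
  obtain ⟨K, hK, H, h1, h2⟩ := core hp hf hF (by rw [hcard]; exact e7_real F hp hf hF) hspec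
  obtain ⟨e⟩ := PSUFour.equiv_of_card K H h1
  obtain ⟨F', _, _, hF', ⟨e'⟩⟩ := h2
  obtain ⟨e''⟩ := Iso.chev_congr (F := F') (K := F) (FiniteField.ringEquivOfCardEq (hF'.trans hF.symm)) chevE7
  exact ⟨(e.trans e').trans e''⟩

end Cfsg.Agent.H365.ExcRun
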