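import Cfsg.Agent.H365.ExcSix
import Cfsg.Agent.H365.ExcRun

/-!
# A finite group with the order and the element orders of `E₆(q)` or `²E₆(q)` is that group
-/

set_option autoImplicit false

namespace Cfsg.Agent.H365.ExcSixRun

open Subgroup Cfsg Cfsg.Agent.OrdDiv Cfsg.Lie
open Cfsg.Agent.H902 Cfsg.Agent.H902.Art Cfsg.Agent.H364 Cfsg.Agent.H364.ArithU Cfsg.Agent.H364.Slack

universe u v

theorem e6_real (F : Type) [Field F] [Fintype F] {p f : ℕ} (hp : p.Prime) (hf : 1 ≤ f) (hF : Fintype.card F = p ^ f) :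
    Art.Real .E6 p f (Nat.card ↥(chevE6.group F)) := by
  refine ⟨hp, hf, trivial, ?_⟩
  have h := table.{0}.e6 F _ hF
  change Nat.gcd 3 (p ^ f - 1) * _ = (p ^ f) ^ 36 * (((p ^ f) ^ 2 - 1) * ((p ^ f) ^ 5 - 1) * ((p ^ f) ^ 6 - 1) *
    ((p ^ f) ^ 8 - 1) * ((p ^ f) ^ 9 - 1) * ((p ^ f) ^ 12 - 1))
  rw [h]
  ring

theorem te6_real (K : Type) [Field K] [Fintype K] {p f : ℕ} (hp : p.Prime) (hf : 1 ≤ f)
    (hK : Fintype.card K = (p ^ f) ^ 2) : Art.Real .TE6 p f (Nat.card ↥(twistedE6 K (p ^ f))) := by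
  refine ⟨hp, hf, trivial, ?_⟩
  have h := table.{0}.te6 K (p ^ f) (hp.isPrimePow.pow (by omega)) hK
  change Nat.gcd 3 (p ^ f + 1) * _ = (p ^ f) ^ 36 * (((p ^ f) ^ 2 - 1) * ((p ^ f) ^ 5 + 1) * ((p ^ f) ^ 6 - 1) *
    ((p ^ f) ^ 8 - 1) * ((p ^ f) ^ 9 + 1) * ((p ^ f) ^ 12 - 1))
  rw [h]
  ring

theorem card_le {Y : Sh} {p f M : ℕ} (hYs : Y = .E6 ∨ Y = .TE6) (hY : Art.Real Y p f M) : M ≤ p ^ (f * 80) := by
  have h1 := hY.M_le
  have hq2 := hY.q_ge
  have hN : NN Y = 36 := by rcases hYs with rfl | rfl <;> rfl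
  rw [hN] at h1
  have h2 : Art.num Y (p ^ f) ≤ (p ^ f) ^ 44 := by
    generalize p ^ f = q at *
    have h5 : q ^ 5 + 1 ≤ q ^ 6 := by
      have h3 : 1 ≤ q ^ 5 := Nat.one_le_pow _ _ (by omega)
      calc q ^ 5 + 1 ≤ q ^ 5 * 2 := by omega
        _ ≤ q ^ 5 * q := Nat.mul_le_mul_left _ hq2
        _ = _ := by ring
    have h9 : q ^ 9 + 1 ≤ q ^ 10 := by
      have h3 : 1 ≤ q ^ 9 := Nat.one_le_pow _ _ (by omega)
      calc q ^ 9 + 1 ≤ q ^ 9 * 2 := by omega
        _ ≤ q ^ 9 * q := Nat.mul_le_mul_left _ hq2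
        _ = _ := by ring
    rcases hYs with rfl | rfl
    · change (q ^ 2 - 1) * (q ^ 5 - 1) * (q ^ 6 - 1) * (q ^ 8 - 1) * (q ^ 9 - 1) * (q ^ 12 - 1) ≤ _
      calc _ ≤ q ^ 2 * q ^ 6 * q ^ 6 * q ^ 8 * q ^ 10 * q ^ 12 := by
            gcongr
            · exact Nat.sub_le _ _
            · omega
            · exact Nat.sub_le _ _
            · exact Nat.sub_le _ _
            · omega
            · exact Nat.sub_le _ _
        _ = _ := by ring
    · change (q ^ 2 - 1) * (q ^ 5 + 1) * (q ^ 6 - 1) * (q ^ 8 - 1) * (q ^ 9 + 1) * (q ^ 12 - 1) ≤ _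
      calc _ ≤ q ^ 2 * q ^ 6 * q ^ 6 * q ^ 8 * q ^ 10 * q ^ 12 := by
            gcongr
            · exact Nat.sub_le _ _
            · exact Nat.sub_le _ _
            · exact Nat.sub_le _ _
            · exact Nat.sub_le _ _
        _ = _ := by ring
  calc M ≤ (p ^ f) ^ 36 * Art.num Y (p ^ f) := h1
    _ ≤ (p ^ f) ^ 36 * (p ^ f) ^ 44 := Nat.mul_le_mul_left _ h2
    _ = _ := by rw [← pow_add, ← pow_mul]

theorem clog_le {p : ℕ} (hp : p.Prime) : Nat.clog p 78 ≤ 7 := by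
  apply Nat.clog_le_of_le_pow
  calc 78 ≤ 2 ^ 7 := by norm_num
    _ ≤ p ^ 7 := Nat.pow_le_pow_left hp.two_le 7

theorem dd_le_DM {X : Sh} {p f M : ℕ} (h : Art.Real X p f M) : dd X (p ^ f) ≤ DM X := by
  have hok := h.ok
  have hg : ∀ n m : ℕ, 1 ≤ n → Nat.gcd n m ≤ n := fun n m hn => Nat.le_of_dvd hn (Nat.gcd_dvd_left _ _)
  cases X with
  | L n => exact hg _ _ (by have := hok.1; omega)
  | C n =>
    have h2 : 2 ≤ n := hok.1
    exact (hg _ _ (by norm_num)).trans (show 2 ≤ 2 * n by omega)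
  | U n =>
    have hn : 3 ≤ n := hok.1
    refine (hg n _ (by omega)).trans ?_
    show n ≤ if Even n then 2 * (n - 1) else 2 * n
    split_ifs <;> omega
  | D n =>
    have hn : 4 ≤ n := hok
    exact (hg _ _ (by norm_num)).trans (show 4 ≤ 2 * (n - 1) by omega)
  | DD n =>
    have hn : 4 ≤ n := hok
    exact (hg _ _ (by norm_num)).trans (show 4 ≤ 2 * n by omega)
  | G2 => exact (show 1 ≤ 6 by norm_num)
  | F4 => exact (show 1 ≤ 12 by norm_num)
  | E6 => exact (hg 3 _ (by norm_num)).trans (show 3 ≤ 12 by norm_num)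
  | E7 => exact (hg 2 _ (by norm_num)).trans (show 2 ≤ 18 by norm_num)
  | E8 => exact (show 1 ≤ 30 by norm_num)
  | TE6 => exact (hg 3 _ (by norm_num)).trans (show 3 ≤ 18 by norm_num)
  | TD4 => exact (show 1 ≤ 12 by norm_num)
  | Sz => exact (show 1 ≤ 4 by norm_num)
  | Ree => exact (show 1 ≤ 6 by norm_num)
  | TF4 => exact (show 1 ≤ 12 by norm_num)

/-- the simple factor with all the data, `E₆` and `²E₆` -/
theorem core {G : Type u} [Group G] [Finite G] {Y : Sh} {a p f : ℕ} (hY1 : (Y = .E6 ∧ a = 9) ∨ (Y = .TE6 ∧ a = 18))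
    (hp : p.Prime) (hf : 1 ≤ f) (hY : Art.Real Y p f (Nat.card G))
    (hNE : ∀ ℓ : ℕ, ℓ.Prime → ∀ m, (m = 8 ∨ m = 12 ∨ m = 9 ∨ m = 18) → (m = 8 ∨ m = a ∨ m = DM Y) →
      orderOf (p : ZMod ℓ) = f * m → NoEdge G ℓ p)
    (hexp : ∀ x : G, ∀ j, orderOf x = p ^ j → j ≤ Nat.clog p 78) :
    ∃ (K : Subgroup G) (_ : K.Normal) (H : Subgroup (G ⧸ K)), Nat.card H = Nat.card G ∧
      ∃ g, Names.IsLie g Y p f ∧ OrdDiv.Real g H := by
  have hpF : Fact p.Prime := ⟨hp⟩
  have hYs : Y = .E6 ∨ Y = .TE6 := by rcases hY1 with h | h <;> tauto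
  have ha : a = 9 ∨ a = 18 := by rcases hY1 with h | h <;> tauto
  have hNY : NN Y = 36 := by rcases hYs with rfl | rfl <;> rfl
  have hDY : DM Y = 12 ∨ DM Y = 18 := by rcases hYs with rfl | rfl <;> [left; right] <;> rfl
  obtain ⟨r, hr, hrp, hro⟩ := exists_ppd hp (n := f * a) (by rcases ha with rfl | rfl <;> omega)
    (fun h => by rcases ha with rfl | rfl <;> omega)
  obtain ⟨s, hs, hsp, hso⟩ := exists_ppd hp (n := f * 8) (by omega) (fun h => by omega)
  obtain ⟨t, ht, htp, hto⟩ := exists_ppd hp (n := f * DM Y) (by rcases hDY with h | h <;> rw [h] <;> omega)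
    (fun h => by rcases hDY with h' | h' <;> rw [h'] at h <;> omega)
  have hEr : NoEdge G r p := hNE r hr a (by omega) (by omega) hro
  have hEs : NoEdge G s p := hNE s hs 8 (by omega) (by omega) hso
  have hEt : NoEdge G t p := hNE t ht (DM Y) (by omega) (by omega) hto
  have hmem : ∀ {ℓ m : ℕ}, ℓ.Prime → orderOf (p : ZMod ℓ) = f * m → 3 ≤ m → Near.EX Y m → ℓ ∣ Nat.card G := by
    intro ℓ m hℓ ho hm hE
    refine Near.dvd_of_mem hY hℓ (e := m) ?_ hm hE
    rw [Near.order_pow hf, ho, Nat.gcd_mul_right_left, Nat.mul_div_cancel_left _ (by omega)]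
  have hrG : r ∣ Nat.card G := hmem hr hro (by omega) (by rcases hY1 with ⟨rfl, rfl⟩ | ⟨rfl, rfl⟩ <;> decide)
  have hsG : s ∣ Nat.card G := hmem hs hso (by omega) (by rcases hY1 with ⟨rfl, rfl⟩ | ⟨rfl, rfl⟩ <;> decide)
  have htG : t ∣ Nat.card G := hmem ht hto (by omega) (by rcases hY1 with ⟨rfl, rfl⟩ | ⟨rfl, rfl⟩ <;> decide)
  have hN : (Nat.card G).factorization p = f * 36 := by rw [← hNY]; exact fac_self hY
  have hlcm : (Nat.card G).factorization p < Nat.lcm (f * a) (f * 8) := by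
    rw [hN, Nat.lcm_mul_left, show Nat.lcm a 8 = 72 by rcases ha with rfl | rfl <;> decide]
    omega
  have he8 := clog_le hp
  set e := Nat.clog p 78 with he
  have heN : e + 1 < (Nat.card G).factorization p := by omega
  have hor : ∀ {t n m : ℕ}, orderOf (p : ZMod t) = n → t ∣ p ^ m - 1 → n ∣ m := by
    intro t n m h h2
    rwa [← h, ← Cfsg.Agent.Lib.Zsigmondy.dvd_pow_sub_one_iff hp.one_le]
  obtain ⟨K, hKn, hpK, hrK, hsK, H, hHn, hHs, hHna, hHG, hout, hEr', hEs', hrs, hi1, hi2, har, hbs, hfr, hfs⟩ :=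
    reduce hp hr hs hrp.symm hsp.symm hrG hsG hEr hEs (fun n h => hor hro h) (fun n h => hor hso h) hlcm hexp heN
  refine ⟨K, hKn, H, ?_⟩
  have hK0 : Nat.card K ≠ 0 := Nat.card_pos.ne'
  have hH0 : Nat.card H ≠ 0 := Nat.card_pos.ne'
  have hI0 : H.index ≠ 0 := Subgroup.index_ne_zero_of_finite
  set δ := H.index.factorization p with hδdef
  have hδ : (Nat.card H).factorization p + δ = (Nat.card G).factorization p := by
    rw [← hHG, Nat.factorization_mul hK0 (Nat.mul_ne_zero hI0 hH0), Finsupp.add_apply,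
      Nat.factorization_eq_zero_of_not_dvd hpK, Nat.factorization_mul hI0 hH0, Finsupp.add_apply, hδdef]
    omega
  have hpI : p ^ δ ∣ H.index := Nat.ordProj_dvd _ _
  have hHd : Nat.card H ∣ Nat.card G := by rw [← hHG]; exact (Dvd.intro_left _ rfl).trans (Dvd.intro_left _ rfl)
  have hknown := Cfsg.Agent.S0000.result (G := H)
  have hlie : IsLieTypeChar p H := by
    rcases known_slack table hknown hHna hp with h | h
    · exact h
    exfalso
    have h1 : H365.PPart.pt p (Nat.card H) = p ^ ((Nat.card G).factorization p - δ) := by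
      rw [H365.PPart.pt]; congr 1; omega
    rw [h1] at h
    have h2 : Nat.card H * p ^ δ ≤ p ^ (f * 80) := by
      have h3 : Nat.card H * p ^ δ ≤ Nat.card G := by
        calc Nat.card H * p ^ δ ≤ Nat.card H * H.index :=
              Nat.mul_le_mul_left _ (Nat.le_of_dvd (Nat.pos_of_ne_zero hI0) hpI)
          _ = H.index * Nat.card H := mul_comm _ _
          _ ≤ Nat.card K * (H.index * Nat.card H) := Nat.le_mul_of_pos_left _ (Nat.pos_of_ne_zero hK0)
          _ = Nat.card G := hHG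
      exact h3.trans (card_le hYs hY)
    have h3 := PSUFour.not_slack hp.two_le h h2
    have h4 : cc p ≤ 12 := by unfold cc; split_ifs <;> norm_num
    omega
  obtain ⟨g, X, f', hg, hreal, hX⟩ := LieNam.lie_nam table hp hlie
  obtain ⟨c, hc1, hc2, hc3⟩ := OutLie.card_out hHna hg hreal hX
  have hI : OutDat X p f' H.index := ⟨c, by rw [← hc1]; exact hout, hc2, hc3⟩
  have hcop : Nat.Coprime (p ^ δ) (dd X (p ^ f')) :=
    Nat.Coprime.pow_left δ ((Nat.Prime.coprime_iff_not_dvd hp).2 hX.not_dvd_dd)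
  have hpc : p ^ δ ∣ c * f' := hpI.trans (by rw [← hc1]; exact hout)
  have h24 : p ^ δ ∣ 24 * f' := by
    have h1 : p ^ δ ∣ dd X (p ^ f') * (24 * f') := by
      refine hpc.trans ?_
      rw [show dd X (p ^ f') * (24 * f') = (24 * dd X (p ^ f')) * f' by ring]
      exact Nat.mul_dvd_mul_right hc2 f'
    exact hcop.dvd_of_dvd_mul_left h1
  have h6 : p = 2 → 2 ^ δ ∣ 6 * f' := by
    intro h2
    have h1 : p ^ δ ∣ dd X (p ^ f') * (6 * f') := by
      refine hpc.trans ?_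
      rw [show dd X (p ^ f') * (6 * f') = (6 * dd X (p ^ f')) * f' by ring]
      exact Nat.mul_dvd_mul_right (hc3 h2) f'
    have h3 := hcop.dvd_of_dvd_mul_left h1
    rwa [h2] at h3
  have hfX : (Nat.card H).factorization p = f' * NN X := fac_self hX
  have hδ' : δ = f * NN Y - f' * NN X := by
    rw [hNY]
    omega
  -- `t` divides `|H|`
  have htK : ¬ t ∣ Nat.card K := by
    intro htK
    have h1 := (index_bound hp ht htp.symm hEt hexp K htK).1
    have h2 : (Nat.card G).factorization p = (Nat.card K).factorization p + K.index.factorization p := by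
      rw [← Subgroup.card_mul_index K, Nat.factorization_mul Nat.card_pos.ne' Subgroup.index_ne_zero_of_finite,
        Finsupp.add_apply]
    rw [Nat.factorization_eq_zero_of_not_dvd hpK, zero_add] at h2
    omega
  have hDle := le_DM hX hY hHd (by rcases hDY with h | h <;> rw [h] <;> omega)
  have hDX : 2 ≤ DM X := (DM_ge hX).1
  have hf'0 : 1 ≤ f' := hX.hf
  have htlt : f * DM Y < t := by
    have h1 : ¬ t ∣ p := fun h => htp ((Nat.prime_dvd_prime_iff_eq ht hp).1 h)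
    have h2 := Cfsg.Agent.Lib.Zsigmondy.orderOf_dvd_pred ht h1
    rw [hto] at h2
    have h3 := Nat.le_of_dvd (by have := ht.two_le; omega) h2
    have := ht.two_le
    omega
  have htH : t ∣ Nat.card H := by
    rw [← hHG, ht.dvd_mul, ht.dvd_mul] at htG
    rcases htG with h | h | h
    · exact absurd h htK
    · exfalso
      have h1 : t ∣ 24 * dd X (p ^ f') * f' := by
        have h2 : t ∣ c * f' := h.trans (by rw [← hc1]; exact hout)
        exact h2.trans (Nat.mul_dvd_mul_right hc2 f')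
      have h12 : 12 ≤ f * DM Y := by rcases hDY with h | h <;> rw [h] <;> omega
      rw [ht.dvd_mul, ht.dvd_mul] at h1
      rcases h1 with (h1 | h1) | h1
      · have h2 : t ∣ 2 ^ 3 * 3 := h1
        rcases ht.dvd_mul.1 h2 with h3 | h3
        · have := Nat.le_of_dvd (by norm_num) (ht.dvd_of_dvd_pow h3)
          omega
        · have := Nat.le_of_dvd (by norm_num) h3
          omega
      · have h2 := Nat.le_of_dvd (Nat.pos_of_ne_zero hX.dd_ne) h1
        have h3 := dd_le_DM hX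
        have h4 : DM X ≤ f' * DM X := Nat.le_mul_of_pos_left _ hf'0
        omega
      · have h2 := Nat.le_of_dvd hf'0 h1
        have h4 : f' ≤ f' * DM X := Nat.le_mul_of_pos_right _ (by omega)
        omega
    · exact h
  have hnear := Near.near_out hX hY hHd ht hto (by rcases hDY with h | h <;> rw [h] <;> omega) htH
    (by rw [← hδ']; exact h24) (by rw [← hδ']; exact h6)
  have hXY : X = Y ∧ f' = f := by
    rcases hnear with h | h
    · exact h
    · exfalso
      unfold Near.Exc at h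
      rcases hYs with rfl | rfl <;> simp at h
  obtain ⟨rfl, rfl⟩ := hXY
  refine ⟨?_, g, hg, hreal⟩
  have h1 := hX.eq
  rw [← hY.eq] at h1
  exact Nat.eq_of_mul_eq_mul_left (Nat.pos_of_ne_zero hY.dd_ne) h1

theorem od_eq {p f ℓ m : ℕ} (hf : 1 ≤ f) (h : orderOf (p : ZMod ℓ) = f * m) : H378.ExcAdj.od (p ^ f) ℓ = m := by
  show orderOf ((p ^ f : ℕ) : ZMod ℓ) = m
  rw [Near.order_pow hf, h, Nat.gcd_mul_right_left, Nat.mul_div_cancel_left _ (by omega)]

/-- **`E₆(q)` is characterised by its order and its element orders.** -/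
theorem recog_E6 {G : Type u} [Group G] [Finite G] {F : Type} [Field F] [Fintype F]
    (hspec : ∀ x : G, ∃ y : ↥(chevE6.group F), orderOf y = orderOf x)
    (hcard : Nat.card G = Nat.card ↥(chevE6.group F)) : Nonempty (G ≃* ↥(chevE6.group F)) := by
  obtain ⟨p, f, hp, hf, hF⟩ := Names.exists_pp F
  have hpF : Fact p.Prime := ⟨hp⟩
  have hchar : CharP F p := OutLie.charP_of_card hp (f := f) (by omega) hF
  have hFn : Nat.card F = p ^ f := by rw [Nat.card_eq_fintype_card, hF]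
  have hpd : p ∣ Nat.card F := by rw [hFn]; exact dvd_pow_self p (by omega)
  obtain ⟨K, hK, H, h1, g, hg, h2⟩ := core (Or.inl ⟨rfl, rfl⟩) hp hf (by rw [hcard]; exact e6_real F hp hf hF)
    (fun ℓ hℓ m hm hm' ho x hx => by
      obtain ⟨y, hy⟩ := hspec x
      exact ExcSix.noEdge_E6 hp hpd hℓ (by rw [hFn]; exact od_eq hf ho) hm y (hy.trans hx))
    (fun x j hx => by
      obtain ⟨y, hy⟩ := hspec x
      exact ExcSix.exp_gl _ (hy.trans hx))
  obtain ⟨e⟩ := PSUFour.equiv_of_card K H h1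
  cases hg
  obtain ⟨F', _, _, hF', ⟨e'⟩⟩ := h2
  obtain ⟨e''⟩ := Iso.chev_congr (F := F') (K := F) (FiniteField.ringEquivOfCardEq (hF'.trans hF.symm)) chevE6
  exact ⟨(e.trans e').trans e''⟩

/-- **`²E₆(q)` is characterised by its order and its element orders.** -/
theorem recog_TE6 {G : Type u} [Group G] [Finite G] {K : Type} [Field K] [Fintype K] {q : ℕ} (hq : IsPrimePow q)
    (hK : Fintype.card K = q ^ 2)
    (hspec : ∀ x : G, ∃ y : ↥(twistedE6 K q), orderOf y = orderOf x)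
    (hcard : Nat.card G = Nat.card ↥(twistedE6 K q)) : Nonempty (G ≃* ↥(twistedE6 K q)) := by
  obtain ⟨p, f, hp, hf, rfl⟩ := (isPrimePow_nat_iff _).1 hq
  have hpF : Fact p.Prime := ⟨hp⟩
  have hchar : CharP K p := OutLie.charP_of_card hp (f := f * 2) (by omega) (by rw [hK, pow_mul])
  have hpd : p ∣ p ^ f := dvd_pow_self p (by omega)
  obtain ⟨L, hL, H, h1, g, hg, h2⟩ := core (Or.inr ⟨rfl, rfl⟩) hp hf (by rw [hcard]; exact te6_real K hp hf hK)
    (fun ℓ hℓ m hm hm' ho x hx => by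
      obtain ⟨y, hy⟩ := hspec x
      exact ExcSix.noEdge_TE6 hq hK hp hpd hℓ (od_eq hf ho) hm y (hy.trans hx))
    (fun x j hx => by
      obtain ⟨y, hy⟩ := hspec x
      exact ExcSix.exp_gl _ (hy.trans hx))
  obtain ⟨e⟩ := PSUFour.equiv_of_card L H h1
  cases hg
  obtain ⟨e'⟩ := Iso.real_unique (.te6 (p ^ f)) h2
    (show OrdDiv.Real (.te6 (p ^ f)) ↥(twistedE6 K (p ^ f)) from ⟨K, inferInstance, inferInstance, hK, ⟨MulEquiv.refl _⟩⟩)
  exact ⟨e.trans e'⟩

end Cfsg.Agent.H365.ExcSixRun
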